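import Mathlib
import Cfsg.Agent.Lib.Helper13.RankTwoFrame
import Cfsg.Agent.Lib.Helper89.MetaOmega
import Cfsg.Agent.Lib.Helper67.PGroupAux
import Cfsg.Agent.Lib.Helper3.Extraspecial
import Cfsg.Agent.Lib.Helper3.OmegaCentralizer
import Cfsg.Agent.Lib.Helper3.MaxClass

set_option autoImplicit false
set_option linter.unusedSectionVars false
set_option linter.style.haveILetI false

/-! Rung A of the S1448 ladder. -/

namespace Cfsg.Agent.Lib.Helper75.RT

open Subgroup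
open scoped commutatorElement
open Cfsg.Agent.Lib.Helper13.RankTwoFrame

variable {R : Type*} [Group R] [Finite R] {p : ℕ} [Fact p.Prime]

theorem exists_frame (hR : IsPGroup p R) (S : Subgroup R) (hS : ∀ x, x ∈ S ↔ x ^ p = 1)
    (hcard : Nat.card S = p ^ 3) (hnab : ∃ a ∈ S, ∃ b ∈ S, a * b ≠ b * a) :
    ∃ s₁ s₂, Frame p S (S ⊓ centralizer (S : Set R)) s₁ s₂ := by
  have hp : p.Prime := Fact.out
  haveI hSn : S.Normal := ⟨fun s hs g => by
    rw [hS, conj_pow, (hS s).mp hs, mul_one, mul_inv_cancel]⟩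
  set Z := S ⊓ centralizer (S : Set R) with hZdef
  haveI hZn : Z.Normal := by rw [hZdef]; infer_instance
  -- center of ↥S
  have hmemc : ∀ w : S, w ∈ center S ↔ (w : R) ∈ Z := by
    intro w
    rw [mem_center_iff, hZdef, mem_inf, mem_centralizer_iff]
    constructor
    · intro h
      exact ⟨w.2, fun s hs => congrArg Subtype.val (h ⟨s, hs⟩)⟩
    · intro h g
      exact Subtype.ext (h.2 g g.2)
  have hcardZ' : Nat.card Z = Nat.card (center S) :=
    Nat.card_congr ⟨fun z => ⟨⟨z.1, z.2.1⟩, (hmemc _).mpr z.2⟩,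
      fun w => ⟨w.1.1, (hmemc _).mp w.2⟩, fun _ => rfl, fun _ => rfl⟩
  have hPG : IsPGroup p S := hR.to_subgroup S
  obtain ⟨k, hk0, hk⟩ := IsPGroup.card_center_eq_prime_pow hcard (by norm_num)
  have hk1 : k = 1 := by
    obtain ⟨hk3, hq⟩ := Cfsg.Agent.Lib.Helper3.card_quotient_of_card hp (center S) hcard hk
    by_contra hne
    have : IsMulCommutative S :=
      Cfsg.Agent.Lib.Helper3.comm_of_card_center_quotient_le hq (by omega)
    obtain ⟨a, ha, b, hb, hab⟩ := hnab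
    exact hab (congrArg Subtype.val (this.is_comm.comm ⟨a, ha⟩ ⟨b, hb⟩))
  subst hk1
  rw [pow_one] at hk
  have hZcard : Nat.card Z = p := hcardZ'.trans hk
  have hZc : Z ≤ center R := Cfsg.Agent.Lib.Helper67.le_center_of_normal_card_eq hR Z hZcard
  have hSZ : ¬ S ≤ Z := by
    intro h
    have := Nat.le_of_dvd (by rw [hZcard]; exact hp.pos) (Subgroup.card_dvd_of_le h)
    rw [hcard, hZcard] at this
    have h2 : p ^ 1 < p ^ 3 := Nat.pow_lt_pow_right hp.one_lt (by norm_num)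
    rw [pow_one] at h2
    omega
  obtain ⟨s₁, hs₁, hs₁Z, -, hcen⟩ := Cfsg.Agent.Lib.Helper3.central_step hR Z S hSZ
  have hex : ∃ s₂ ∈ S, s₂ * s₁ ≠ s₁ * s₂ := by
    by_contra hcon
    push Not at hcon
    exact hs₁Z (mem_inf.mpr ⟨hs₁, mem_centralizer_iff.mpr hcon⟩)
  obtain ⟨s₂, hs₂, hne⟩ := hex
  have hc : commutator S ≤ center S := by
    have h2 := Cfsg.Agent.Lib.Helper89.class_two_of_card_le hPG hcard.le
    rw [_root_.commutator_def, Subgroup.commutator_le]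
    intro a _ b _
    exact Cfsg.Agent.Lib.Helper3.commutator_mem_center_of_class_two h2 a b
  have hxy : ¬ Commute (⟨s₁, hs₁⟩ : S) ⟨s₂, hs₂⟩ := by
    intro h
    exact hne (congrArg Subtype.val h.eq).symm
  have hker : (Cfsg.Agent.Lib.Helper3.commHom₂ hc (⟨s₁, hs₁⟩ : S) ⟨s₂, hs₂⟩).ker = center S := by
    have h1 := Cfsg.Agent.Lib.Helper3.card_eq_sq_mul_card_ker hc hk _ _ hxy
    rw [hcard] at h1
    have h2 : Nat.card (Cfsg.Agent.Lib.Helper3.commHom₂ hc (⟨s₁, hs₁⟩ : S) ⟨s₂, hs₂⟩).ker = p := by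
      have h3 : p ^ 2 * p = p ^ 2 * Nat.card
          (Cfsg.Agent.Lib.Helper3.commHom₂ hc (⟨s₁, hs₁⟩ : S) ⟨s₂, hs₂⟩).ker := by
        rw [← h1]; ring
      exact (Nat.eq_of_mul_eq_mul_left (pow_pos hp.pos 2) h3).symm
    exact (Subgroup.eq_of_le_of_card_ge (Cfsg.Agent.Lib.Helper3.center_le_ker hc _ _)
      (by rw [h2, hk])).symm
  refine ⟨s₁, s₂, ⟨hS, hZc, hZcard, hs₁, hs₂, ?_, hcen, ?_⟩⟩
  · intro h
    rw [commutatorElement_eq_one_iff_mul_comm] at h
    exact hne h.symm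
  · intro s hs
    obtain ⟨i, k, q, hq, e⟩ := Cfsg.Agent.Lib.Helper3.exists_decomp hc hk _ _ hxy (⟨s, hs⟩ : S)
    rw [hker] at hq
    refine ⟨i, k, q, (hmemc q).mp hq, ?_⟩
    have := congrArg Subtype.val e
    simpa using this

end Cfsg.Agent.Lib.Helper75.RT
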