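import Mathlib
import Cfsg.Agent.Lib.Helper13.RankTwoFrame

set_option autoImplicit false
set_option linter.unusedSectionVars false

/-! Rung C of the S1448 ladder. -/

namespace Cfsg.Agent.Lib.Helper75.RT

open Subgroup
open scoped commutatorElement
open Cfsg.Agent.Lib.Helper13.RankTwoFrame

theorem commute_of_comm_eq {G : Type*} [Group G] {a g s : G} (h : ⁅a, g⁆ = ⁅a, s⁆) :
    Commute (s⁻¹ * g) a := by
  rw [commutatorElement_def, commutatorElement_def] at h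
  have h1 : g * a⁻¹ * g⁻¹ = s * a⁻¹ * s⁻¹ := by
    have := congrArg (fun t => a⁻¹ * t) h
    simpa [mul_assoc] using this
  have h2 : (s⁻¹ * g) * a⁻¹ = a⁻¹ * (s⁻¹ * g) := by
    calc (s⁻¹ * g) * a⁻¹ = s⁻¹ * (g * a⁻¹ * g⁻¹) * g := by group
      _ = s⁻¹ * (s * a⁻¹ * s⁻¹) * g := by rw [h1]
      _ = a⁻¹ * (s⁻¹ * g) := by group
  exact (Commute.inv_right_iff).mp h2

variable {R : Type*} [Group R] [Finite R] {p : ℕ} [Fact p.Prime] {S Z : Subgroup R} {s₁ s₂ : R}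

/-- an element commuting with `s₁` and `s₂` centralizes `S` -/
theorem mem_centralizer_of_commute (F : Frame p S Z s₁ s₂) {c : R} (h1 : Commute c s₁)
    (h2 : Commute c s₂) : c ∈ centralizer (S : Set R) := by
  rw [mem_centralizer_iff]
  intro s hs
  obtain ⟨i, k, q, hq, rfl⟩ := F.hdec s hs
  have hq' : Commute c q := (mem_center_iff.mp (F.Zc hq) c)
  exact (((h2.zpow_right i).mul_right (h1.zpow_right k)).mul_right hq').symm

theorem exists_mul_of_comm_mem (F : Frame p S Z s₁ s₂) (g : R) (hg : ⁅s₂, g⁆ ∈ Z) :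
    ∃ c ∈ centralizer (S : Set R), ∃ s ∈ S, g = c * s := by
  obtain ⟨α, hα⟩ := F.mem_zpowers (F.hcen g)
  obtain ⟨β, hβ⟩ := F.mem_zpowers hg
  have hsS : s₂ ^ α * s₁ ^ (-β) ∈ S := S.mul_mem (S.zpow_mem F.hs₂ _) (S.zpow_mem F.hs₁ _)
  have e1 : ⁅s₁, g⁆ = ⁅s₁, s₂ ^ α * s₁ ^ (-β)⁆ := by
    have := F.comm_coord α (-β) Z.one_mem
    rw [mul_one] at this
    rw [this]; exact hα.symm
  have hz : ⁅s₂, s₁⁆ ∈ center R := by rw [← commutatorElement_inv]; exact inv_mem (F.cen s₂)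
  have e2 : ⁅s₂, g⁆ = ⁅s₂, s₂ ^ α * s₁ ^ (-β)⁆ := by
    have h3 : ⁅s₂, s₂ ^ α⁆ = 1 := by
      rw [commutatorElement_eq_one_iff_commute]; exact (Commute.refl s₂).zpow_right α
    have h4 : ⁅s₂, s₁ ^ (-β)⁆ = ⁅s₁, s₂⁆ ^ β := by
      rw [comm_zpow_right hz, ← commutatorElement_inv s₁ s₂, inv_zpow, zpow_neg, inv_inv]
    have h5 : ⁅s₁, s₂⁆ ^ β ∈ center R := zpow_mem (F.cen s₂) β
    rw [commutatorElement_mul_right_eq_mul_conj, h3, h4, one_mul,
      mem_center_iff.mp h5 (s₂ ^ α), mul_assoc, mul_inv_cancel, mul_one]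
    exact hβ.symm
  have hc : (s₂ ^ α * s₁ ^ (-β))⁻¹ * g ∈ centralizer (S : Set R) :=
    mem_centralizer_of_commute F (commute_of_comm_eq e1) (commute_of_comm_eq e2)
  refine ⟨_, hc, _, hsS, ?_⟩
  rw [← (mem_centralizer_iff.mp hc) _ hsS]
  group

end Cfsg.Agent.Lib.Helper75.RT
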