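import Mathlib
import Cfsg.Agent.Lib.Helper13.RankTwoFrame
import Cfsg.Agent.Lib.Helper59.UniqueOdd

set_option autoImplicit false
set_option linter.unusedSectionVars false

/-! Rung D of the S1448 ladder. -/

namespace Cfsg.Agent.Lib.Helper75.RT

open Subgroup
open scoped commutatorElement
open Cfsg.Agent.Lib.Helper13.RankTwoFrame

variable {R : Type*} [Group R] [Finite R] {p : ℕ} [Fact p.Prime] {S Z : Subgroup R} {s₁ s₂ : R}

theorem mem_Z_of_mem_centralizer (F : Frame p S Z s₁ s₂) {u : R} (hu : u ∈ S)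
    (hc : u ∈ centralizer (S : Set R)) : u ∈ Z := by
  rw [mem_centralizer_iff] at hc
  have h1 : ⁅s₁, u⁆ = 1 := by
    rw [commutatorElement_eq_one_iff_mul_comm]
    exact hc s₁ F.hs₁
  obtain ⟨k, q, hq, rfl⟩ := F.form_of_commute hu h1
  have h2 : ⁅s₁ ^ k * q, s₂⁆ = 1 := by
    rw [commutatorElement_eq_one_iff_mul_comm]
    exact (hc s₂ F.hs₂).symm
  rw [F.comm_of_form k hq] at h2
  have hdvd : (p : ℤ) ∣ k := by
    rw [← F.orderOf_z]; exact orderOf_dvd_iff_zpow_eq_one.mpr h2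
  obtain ⟨j, rfl⟩ := hdvd
  rw [zpow_mul, zpow_natCast, (F.memS s₁).mp F.hs₁, one_zpow, one_mul]
  exact hq

theorem isCyclic_centralizer (F : Frame p S Z s₁ s₂) (hp2 : p ≠ 2) (hR : IsPGroup p R) :
    IsCyclic (centralizer (S : Set R)) := by
  apply Cfsg.Agent.Lib.Helper59.isCyclic_of_unique_odd hp2 (hR.to_subgroup _)
  intro x y hx hy
  have key : ∀ w : centralizer (S : Set R), orderOf w = p → (w : R) ∈ Z ∧ (w : R) ≠ 1 := by
    intro w hw
    have hw1 : (w : R) ^ p = 1 := by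
      have := pow_orderOf_eq_one w
      rw [hw] at this
      exact congrArg Subtype.val this
    refine ⟨mem_Z_of_mem_centralizer F ((F.memS _).mpr hw1) w.2, ?_⟩
    intro h
    have : w = 1 := Subtype.ext h
    rw [this, orderOf_one] at hw
    exact (Fact.out : p.Prime).one_lt.ne hw
  obtain ⟨hxZ, hx1⟩ := key x hx
  obtain ⟨hyZ, -⟩ := key y hy
  obtain ⟨k, hk⟩ := F.mem_zpowers' hxZ hx1 hyZ
  exact ⟨k, Subtype.ext (by simpa using hk)⟩

end Cfsg.Agent.Lib.Helper75.RT
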