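import Mathlib
import Cfsg.Agent.Lib.Helper13.RankTwoFrame
import Cfsg.Agent.Lib.Helper59.UniqueOdd

set_option autoImplicit false
set_option linter.unusedSectionVars false

/-! Rung E of the S1448 ladder. -/

namespace Cfsg.Agent.Lib.Helper75.RT

open Subgroup
open scoped commutatorElement
open Cfsg.Agent.Lib.Helper13.RankTwoFrame

variable {R : Type*} [Group R] [Finite R] {p : ℕ} [Fact p.Prime] {S Z : Subgroup R} {s₁ s₂ : R}

theorem key_x (F : Frame p S Z s₁ s₂) (hp2 : p ≠ 2) (hR : IsPGroup p R) {x : R}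
    (hx : ⁅s₂, x⁆ ∉ Z)
    (hpow : ∀ w : R, w ^ p ∈ centralizer (S : Set R))
    (hinf : ∀ u ∈ S, u ∈ centralizer (S : Set R) → u ∈ Z)
    (hdvd : ∀ (c : R) (i : ℤ), c ∈ centralizer (S : Set R) → c * x ^ i ∈ S → (p : ℤ) ∣ i) :
    (∀ c ∈ centralizer (S : Set R), Commute x c) ∧
      x ^ Nat.card (centralizer (S : Set R)) ∈ Z ∧
      x ^ Nat.card (centralizer (S : Set R)) ≠ 1 := by
  classical
  haveI : S.Normal := F.normal
  set C := centralizer (S : Set R) with hC
  haveI hCn : C.Normal := by rw [hC]; infer_instance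
  set X := C ⊔ zpowers x with hX
  have hCX : C ≤ X := le_sup_left
  have hxX : x ∈ X := (le_sup_right : zpowers x ≤ X) (mem_zpowers x)
  -- order p elements of X lie in Z
  have key : ∀ w : X, orderOf w = p → (w : R) ∈ Z ∧ (w : R) ≠ 1 := by
    intro w hw
    have hw1 : (w : R) ^ p = 1 := by
      have := pow_orderOf_eq_one w
      rw [hw] at this
      exact congrArg Subtype.val this
    have hwS : (w : R) ∈ S := (F.memS _).mpr hw1
    obtain ⟨c, hc, z, ⟨i, rfl⟩, hcz⟩ := mem_sup_of_normal_left.mp w.2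
    have hcz' : c * x ^ i = (w : R) := hcz
    obtain ⟨j, rfl⟩ := hdvd c i hc (hcz' ▸ hwS)
    have hxi : x ^ ((p : ℤ) * j) ∈ C := by
      rw [zpow_mul, zpow_natCast]; exact C.zpow_mem (hpow x) j
    refine ⟨hinf _ hwS (hcz' ▸ C.mul_mem hc hxi), ?_⟩
    intro h
    have : w = 1 := Subtype.ext h
    rw [this, orderOf_one] at hw
    exact (Fact.out : p.Prime).one_lt.ne hw
  have hcyc : IsCyclic X := by
    apply Cfsg.Agent.Lib.Helper59.isCyclic_of_unique_odd hp2 (hR.to_subgroup _)
    intro a b ha hb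
    obtain ⟨haZ, ha1⟩ := key a ha
    obtain ⟨hbZ, -⟩ := key b hb
    obtain ⟨k, hk⟩ := F.mem_zpowers' haZ ha1 hbZ
    exact ⟨k, Subtype.ext (by simpa using hk)⟩
  have hcomm : ∀ c ∈ C, Commute x c := by
    intro c hc
    have := (IsCyclic.isMulCommutative (α := X)).is_comm.comm ⟨x, hxX⟩ ⟨c, hCX hc⟩
    exact congrArg Subtype.val this
  set e := Nat.card C with he
  have hZC : Z ≤ C := fun q hq => by
    rw [hC, mem_centralizer_iff]; intro s _; exact (mem_center_iff.mp (F.Zc hq) s)
  have hpe : p ∣ e := by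
    rw [← F.Zcard]; exact Subgroup.card_dvd_of_le hZC
  obtain ⟨m, hm⟩ := hpe
  have hxeC : x ^ e ∈ C := by rw [hm, pow_mul]; exact C.pow_mem (hpow x) m
  have hxep : (x ^ e) ^ p = 1 := by
    rw [← pow_mul, mul_comm, pow_mul]
    have := pow_card_eq_one' (G := C) (x := ⟨x ^ p, hpow x⟩)
    exact congrArg Subtype.val this
  have hxeZ : x ^ e ∈ Z := hinf _ ((F.memS _).mpr hxep) hxeC
  have hxC : x ∉ C := by
    intro h
    apply hx
    have : ⁅s₂, x⁆ = 1 := by
      rw [commutatorElement_eq_one_iff_mul_comm]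
      exact (mem_centralizer_iff.mp h) s₂ F.hs₂
    rw [this]; exact Z.one_mem
  refine ⟨hcomm, hxeZ, ?_⟩
  intro h1
  haveI : Fintype X := Fintype.ofFinite X
  haveI : Fintype C := Fintype.ofFinite C
  have hle := IsCyclic.card_pow_eq_one_le (α := X) (n := e) Nat.card_pos
  have hcardimg : (Finset.univ.image (Subgroup.inclusion hCX)).card = e := by
    rw [Finset.card_image_of_injective _ (Subgroup.inclusion_injective hCX), Finset.card_univ, he,
      Nat.card_eq_fintype_card]
  have hnot : (⟨x, hxX⟩ : X) ∉ Finset.univ.image (Subgroup.inclusion hCX) := by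
    intro h
    obtain ⟨c, -, hc⟩ := Finset.mem_image.mp h
    apply hxC
    have h2 : (c : R) = x := congrArg Subtype.val hc
    rw [← h2]; exact c.2
  have hsub : insert (⟨x, hxX⟩ : X) (Finset.univ.image (Subgroup.inclusion hCX)) ⊆
      Finset.univ.filter (fun a : X => a ^ e = 1) := by
    intro a ha
    rw [Finset.mem_filter]
    refine ⟨Finset.mem_univ _, ?_⟩
    rcases Finset.mem_insert.mp ha with rfl | ha
    · exact Subtype.ext h1
    · obtain ⟨c, -, rfl⟩ := Finset.mem_image.mp ha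
      rw [← map_pow, he, pow_card_eq_one', map_one]
  have := Finset.card_le_card hsub
  rw [Finset.card_insert_of_notMem hnot, hcardimg] at this
  omega

end Cfsg.Agent.Lib.Helper75.RT
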