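import Cfsg.Agent.Lib.Helper75.AutOPts
import Cfsg.Agent.Lib.Helper95.OmSiegGen

set_option autoImplicit false
set_option linter.unusedSectionVars false
set_option linter.unusedSimpArgs false

/-! Rung F7 of the AUT-ORTH ladder (helper95, msg 869). -/

namespace Cfsg.Agent.Lib.Helper75.AutOPts

open QuadraticMap Module Cfsg.Agent.Lib.Helper49 Cfsg.Agent.Lib.Helper95 Cfsg.Agent.Lib.Helper95.AutO

variable {F V : Type*} [Field F] [Fintype F] [AddCommGroup V] [Module F V] [FiniteDimensional F V]
  {Q : QuadraticForm F V}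

/-- `n` independent vectors of `W` killed by two linear forms -/
lemma exists_indep_perp2 (W : Submodule F V) (f y : V) {n : ℕ} (hn : n + 2 ≤ finrank F W) :
    ∃ v : Fin n → V, LinearIndependent F v ∧
      ∀ i, v i ∈ W ∧ polar Q f (v i) = 0 ∧ polar Q y (v i) = 0 := by
  let L : W →ₗ[F] (Fin 2 → F) :=
    LinearMap.pi ![(polarBilin Q f).comp W.subtype, (polarBilin Q y).comp W.subtype]
  have h1 := LinearMap.finrank_range_add_finrank_ker L
  have h2 : finrank F (LinearMap.range L) ≤ 2 := by
    have := Submodule.finrank_le (LinearMap.range L)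
    simpa using this
  have h3 : n ≤ finrank F (LinearMap.ker L) := by omega
  obtain ⟨v, hv⟩ := exists_linearIndependent_of_le_finrank h3
  refine ⟨fun i => ((v i : W) : V), ?_, fun i => ⟨(v i : W).2, ?_, ?_⟩⟩
  · have h4 := hv.map' (W.subtype.comp (LinearMap.ker L).subtype) (by
      rw [LinearMap.ker_comp, Submodule.ker_subtype, Submodule.comap_bot, Submodule.ker_subtype])
    exact h4
  · have h5 := LinearMap.mem_ker.1 (v i).2
    have := congrFun h5 0
    simpa [L] using this
  · have h5 := LinearMap.mem_ker.1 (v i).2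
    have := congrFun h5 1
    simpa [L] using this

instance finite_PT : Finite (PT Q) := by
  have : Finite V := Module.finite_of_finite F
  have : Finite (V ≃ₗ[F] V) := Finite.of_injective (fun g => (g : V → V)) DFunLike.coe_injective
  infer_instance

/-- RUNG F7 -/
theorem exists_conj_lagr (hQ : (polarBilin Q).Nondegenerate) (hd : 10 ≤ finrank F V)
    (W : Submodule F V) (hW : ∀ x ∈ W, Q x = 0) (hWd : 2 * finrank F W = finrank F V) :
    ∃ g : ↥(Om Q), g.1 ∉ stabSub Q W ∧
      Fintype.card F <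
        Nat.card ↥(img Q (QW Q W) ⊓ img Q (QW Q (W.map (g.1.1 : V →ₗ[F] V)))) := by
  have hd7 : 7 ≤ finrank F V := by omega
  have hpol : ∀ x ∈ W, ∀ y ∈ W, polar Q x y = 0 := by
    intro x hx y hy
    rw [polar, hW _ (W.add_mem hx hy), hW x hx, hW y hy]; simp
  -- `u`
  obtain ⟨u1, hu1i, hu1⟩ := exists_indep_perp2 (Q := Q) W 0 0 (n := 1) (by omega)
  set u := u1 0 with hu
  have huW : u ∈ W := (hu1 0).1
  have hu0 : u ≠ 0 := hu1i.ne_zero 0
  have hQu : Q u = 0 := hW u huW
  have huu : polar Q u u = 0 := polar_self_of_Q hQu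
  -- `f`
  obtain ⟨f0, hf0⟩ := qexists_dual Q hQ hu0
  set f := f0 - Q f0 • u with hf
  have hQf : Q f = 0 := by
    rw [hf, qmap_sub, QuadraticMap.map_smul, hQu, polar_smul_right, polar_comm, hf0]
    simp
  have huf : polar Q u f = 1 := by
    rw [hf, polar_sub_right, polar_smul_right, huu, hf0]; simp
  -- `u2`
  obtain ⟨u2', hu2i, hu2'⟩ := exists_indep_perp2 (Q := Q) W f 0 (n := 1) (by omega)
  set u2 := u2' 0 with hu2
  have hu2W : u2 ∈ W := (hu2' 0).1
  have hu20 : u2 ≠ 0 := hu2i.ne_zero 0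
  have hfu2 : polar Q f u2 = 0 := (hu2' 0).2.1
  have hQu2 : Q u2 = 0 := hW u2 hu2W
  have huu2 : polar Q u u2 = 0 := hpol u huW u2 hu2W
  have hff : polar Q f f = 0 := polar_self_of_Q hQf
  -- `y`
  obtain ⟨z, hzu, hzf, hzu2⟩ := qsep2 hQ (x := u) (y := f) (w := u2) (by
    intro c d hcd
    have h1 : polar Q u u2 = d := by
      rw [hcd, polar_add_right, polar_smul_right, polar_smul_right, huu, huf]; simp
    have h2 : polar Q f u2 = c := by
      rw [hcd, polar_add_right, polar_smul_right, polar_smul_right, hff, polar_comm Q f u, huf]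
      simp
    rw [huu2] at h1
    rw [hfu2] at h2
    rw [← h1, ← h2] at hcd
    simp at hcd
    exact hu20 hcd)
  set y := z - Q z • u2 with hy
  have hQy : Q y = 0 := by
    rw [hy, qmap_sub, QuadraticMap.map_smul, hQu2, polar_smul_right, hzu2]
    simp
  have hfy : polar Q f y = 0 := by
    rw [hy, polar_sub_right, polar_smul_right, hfu2, polar_comm, hzf]; simp
  have huy : polar Q y u = 0 := by
    rw [hy, polar_sub_left, polar_smul_left, polar_comm Q u2 u, huu2, hzu]; simp
  have hu2y : polar Q u2 y = 1 := by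
    rw [hy, polar_sub_right, polar_smul_right, polar_self_of_Q hQu2, polar_comm, hzu2]; simp
  have hyW : y ∉ W := by
    intro h
    have := hpol u2 hu2W y h
    rw [hu2y] at this
    exact one_ne_zero this
  set g : ↥(Om Q) := ⟨si Q f y, si_mem_commutator hQ (by omega) f y⟩ with hg
  have hgfix : ∀ x, polar Q f x = 0 → polar Q y x = 0 → g.1.1 x = x := by
    intro x h1 h2
    change (si Q f y).1 x = x
    rw [si_apply hQf hfy, h1, h2]
    simp
  refine ⟨g, ?_, ?_⟩
  · intro hst
    have h1 := stabSub_apply_mem hst huW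
    change (si Q f y).1 u ∈ W at h1
    rw [si_apply hQf hfy, polar_comm Q f u, huf, huy, hQy] at h1
    simp only [one_smul, zero_smul, sub_zero, mul_one] at h1
    exact hyW ((W.add_mem_iff_right huW).1 h1)
  · obtain ⟨v, hvi, hv⟩ := exists_indep_perp2 (Q := Q) W f y (n := 3) (by omega)
    have hmemW : ∀ a b : F, a • v 1 + b • v 2 ∈ W := fun a b =>
      W.add_mem (W.smul_mem _ (hv 1).1) (W.smul_mem _ (hv 2).1)
    have hgv : ∀ i, g.1.1 (v i) = v i := fun i => hgfix _ (hv i).2.1 (hv i).2.2
    have hQ0 : Q (v 0) = 0 := hW _ (hv 0).1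
    have hp0 : ∀ a b : F, polar Q (v 0) (a • v 1 + b • v 2) = 0 := fun a b =>
      hpol _ (hv 0).1 _ (hmemW a b)
    have hin : ∀ a b : F, sb hQ hd7 (v 0) (a • v 1 + b • v 2) ∈
        img Q (QW Q W) ⊓ img Q (QW Q (W.map (g.1.1 : V →ₗ[F] V))) := by
      intro a b
      constructor
      · apply pr_mem_img
        exact si_mem_QW hW (hv 0).1 (fun x hx => hpol x hx _ (hmemW a b))
      · apply pr_mem_img
        apply si_mem_QW
        · rintro _ ⟨x, hx, rfl⟩
          change Q (g.1.1 x) = 0
          rw [OG_apply, hW x hx]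
        · exact ⟨v 0, (hv 0).1, hgv 0⟩
        · rintro _ ⟨x, hx, rfl⟩
          have h1 : g.1.1 (a • v 1 + b • v 2) = a • v 1 + b • v 2 := by
            rw [map_add, map_smul, map_smul, hgv, hgv]
          change polar Q (g.1.1 x) _ = 0
          rw [← h1, OG_polar]
          exact hpol x hx _ (hmemW a b)
    let φ : F × F → ↥(img Q (QW Q W) ⊓ img Q (QW Q (W.map (g.1.1 : V →ₗ[F] V)))) :=
      fun ab => ⟨_, hin ab.1 ab.2⟩
    have hφ : Function.Injective φ := by
      rintro ⟨a, b⟩ ⟨a', b'⟩ h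
      have h1 : sb hQ hd7 (v 0) (a • v 1 + b • v 2) = sb hQ hd7 (v 0) (a' • v 1 + b' • v 2) :=
        congrArg Subtype.val h
      obtain ⟨c, hc⟩ := (sb_eq_sb_iff hQ hd7 hQ0 (hvi.ne_zero 0) (hp0 a b) (hp0 a' b')).1 h1
      have h2 := Fintype.linearIndependent_iff.1 hvi ![-c, a - a', b - b'] (by
        rw [Fin.sum_univ_three]
        simp only [Matrix.cons_val_zero, Matrix.cons_val_one, Matrix.cons_val_two,
          Matrix.head_cons, Matrix.tail_cons, Matrix.cons_val]
        have : -c • v 0 + (a - a') • v 1 + (b - b') • v 2 =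
            (a • v 1 + b • v 2) - (a' • v 1 + b' • v 2 + c • v 0) := by module
        rw [this, ← hc, sub_self])
      have h3 := h2 1
      have h4 := h2 2
      simp at h3 h4
      rw [sub_eq_zero.1 h3, sub_eq_zero.1 h4]
    have h5 := Nat.card_le_card_of_injective φ hφ
    rw [Nat.card_prod, Nat.card_eq_fintype_card] at h5
    have h6 : 1 < Fintype.card F := Fintype.one_lt_card
    nlinarith

end Cfsg.Agent.Lib.Helper75.AutOPts
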