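import Mathlib
import Cfsg.Agent.Lib.Helper75.BGTopTexts

/-!
B-G top level: the dictionary between the "type" vocabulary (`typeCore`, `typeA1`, `typeA`) and the
`σ`-vocabulary (`sigmaCore`, `sigmaA`), from the texts.
-/

set_option autoImplicit false

namespace Cfsg.Agent.Lib.Helper75.BGTop

open Subgroup

universe u

variable {G : Type u} [Group G]

theorem exists_decomp (T : Texts0 G) {M : Subgroup G} (hM : IsCoatom M) :
    ∃ K U : Subgroup G, Cfsg.IsSigmaDecomposition M K U := by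
  obtain ⟨⟨K, hK⟩, hc⟩ := T.t1351 M hM
  obtain ⟨⟨U, hU⟩, -⟩ := T.t1352 M hM K (hc K hK) hK
  exact ⟨K, U, hU⟩

theorem sup_eq_of_eq_bot {M K U : Subgroup G}
    (D : Cfsg.IsSigmaDecomposition M K U) (hK : K = ⊥) : U ⊔ Cfsg.sigmaCore M = M := by
  subst hK
  have h := D.compl
  rw [bot_sup_eq] at h
  apply le_antisymm (sup_le h.1 h.2.1)
  intro m hm
  obtain ⟨a, ha, b, hb, rfl⟩ := h.2.2.2 m hm
  exact mul_mem (mem_sup_left ha) (mem_sup_right hb)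

theorem sup_le_of_decomp {M K U : Subgroup G}
    (D : Cfsg.IsSigmaDecomposition M K U) : U ⊔ Cfsg.sigmaCore M ≤ M :=
  sup_le D.compl.1 (le_sup_right.trans D.compl.2.1)

theorem ne_bot_of_eq_bot (T : Texts0 G) {M K U : Subgroup G} (hM : IsCoatom M)
    (D : Cfsg.IsSigmaDecomposition M K U) (hK : K = ⊥) : U ≠ ⊥ := by
  intro hU
  have h := sup_eq_of_eq_bot D hK
  rw [hU, bot_sup_eq] at h
  obtain ⟨-, -, h1, h2, -⟩ := T.t1355 M hM
  rw [h] at h1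
  exact absurd h2 (not_lt_of_ge h1)

theorem fittingHallOf_eq (T : Texts0 G) {M K U : Subgroup G} (hM : IsCoatom M)
    (D : Cfsg.IsSigmaDecomposition M K U) (hU : U ≠ ⊥) :
    Cfsg.fittingHallOf M = Cfsg.sigmaCore M := by
  by_contra h
  exact hU (T.t1357 M hM K U D h).1

theorem typeCore_eq (T : Texts0 G) {M : Subgroup G} (hM : IsCoatom M) :
    Cfsg.typeCore M = Cfsg.sigmaCore M := by
  obtain ⟨K, U, D⟩ := exists_decomp T hM
  unfold Cfsg.typeCore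
  split_ifs with h
  · obtain ⟨hK, hU, -⟩ := (T.t1382 M hM K U D).1 h
    rw [(T.t1365 M hM K U D hK).1, hU, bot_sup_eq]
  · by_contra hne
    obtain ⟨hU, -, hp⟩ := T.t1357 M hM K U D hne
    apply h
    apply (T.t1382 M hM K U D).2
    refine ⟨?_, hU, hne⟩
    rintro rfl
    rw [card_bot] at hp
    exact Nat.not_prime_one hp

theorem typeA1_eq (T : Texts0 G) {M : Subgroup G} (hM : IsCoatom M) :
    Cfsg.typeA1 M = (Cfsg.sigmaCore M : Set G) \ {1} := by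
  unfold Cfsg.typeA1
  rw [typeCore_eq T hM]

theorem typeA_eq (T : Texts0 G) {M K U : Subgroup G} (hM : IsCoatom M)
    (D : Cfsg.IsSigmaDecomposition M K U) :
    Cfsg.typeA M = Cfsg.sigmaA M U \ {1} := by
  unfold Cfsg.typeA
  split_ifs with h
  · obtain ⟨hK, hU⟩ := (T.t1380 M hM K U D).1 h
    rw [fittingHallOf_eq T hM D hU]
    ext a
    simp only [Cfsg.sigmaA, Cfsg.sigmaHat, sup_eq_of_eq_bot D hK, Set.mem_ofPred_eq, Set.mem_sdiff,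
      Set.mem_inter_iff, SetLike.mem_coe, Set.mem_singleton_iff]
    tauto
  · have hK : K ≠ ⊥ := fun hK => h ((T.t1380 M hM K U D).2 ⟨hK, ne_bot_of_eq_bot T hM D hK⟩)
    rw [typeCore_eq T hM, (T.t1365 M hM K U D hK).1]
    ext a
    simp only [Cfsg.sigmaA, Cfsg.sigmaHat, Set.mem_ofPred_eq, Set.mem_sdiff,
      Set.mem_inter_iff, SetLike.mem_coe, Set.mem_singleton_iff]
    constructor
    · rintro ⟨h1, h2, h3⟩
      exact ⟨⟨⟨sup_le_of_decomp D h1, h3⟩, h1⟩, h2⟩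
    · rintro ⟨⟨⟨-, h3⟩, h1⟩, h2⟩
      exact ⟨h1, h2, h3⟩

/-! ### invariance under `M` -/

theorem sigmaCore_conj_mem {M : Subgroup G} {m y : G} (hm : m ∈ M) (hy : y ∈ Cfsg.sigmaCore M) :
    m * y * m⁻¹ ∈ Cfsg.sigmaCore M := by
  obtain ⟨y', hy', rfl⟩ := hy
  exact ⟨⟨m, hm⟩ * y' * ⟨m, hm⟩⁻¹, (Cfsg.piCore_normal _ _).conj_mem y' hy' ⟨m, hm⟩, rfl⟩

theorem sigmaCore_conj_mem_iff {M : Subgroup G} {m y : G} (hm : m ∈ M) :
    m * y * m⁻¹ ∈ Cfsg.sigmaCore M ↔ y ∈ Cfsg.sigmaCore M := by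
  refine ⟨fun h => ?_, sigmaCore_conj_mem hm⟩
  have := sigmaCore_conj_mem (M.inv_mem hm) h
  have e : m⁻¹ * (m * y * m⁻¹) * m⁻¹⁻¹ = y := by group
  rwa [e] at this

theorem sigmaHat_conj_mem {M : Subgroup G} {m a : G} (hm : m ∈ M) (ha : a ∈ Cfsg.sigmaHat M) :
    m * a * m⁻¹ ∈ Cfsg.sigmaHat M := by
  obtain ⟨haM, y, hy, hy1, e⟩ := ha
  refine ⟨M.mul_mem (M.mul_mem hm haM) (M.inv_mem hm), m * y * m⁻¹, sigmaCore_conj_mem hm hy,
    ?_, ?_⟩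
  · intro h
    exact hy1 (conj_eq_one_iff.1 h)
  · calc m * a * m⁻¹ * (m * y * m⁻¹) = m * (a * y) * m⁻¹ := by group
      _ = m * (y * a) * m⁻¹ := by rw [e]
      _ = m * y * m⁻¹ * (m * a * m⁻¹) := by group

theorem sup_conj_mem_iff (T : Texts0 G) {M K U : Subgroup G} (hM : IsCoatom M)
    (D : Cfsg.IsSigmaDecomposition M K U) {m a : G} (hm : m ∈ M) :
    m * a * m⁻¹ ∈ U ⊔ Cfsg.sigmaCore M ↔ a ∈ U ⊔ Cfsg.sigmaCore M := by
  have h := (T.t1352 M hM K D.cyclic D.hall).2 U D hm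
  exact (mem_normalizer_iff.1 h a).symm

theorem X2_inv (T : Texts0 G) {M K U : Subgroup G} (hM : IsCoatom M)
    (D : Cfsg.IsSigmaDecomposition M K U) :
    ∀ m ∈ M, ∀ x ∈ Cfsg.sigmaA M U \ (Cfsg.sigmaCore M : Set G),
      m * x * m⁻¹ ∈ Cfsg.sigmaA M U \ (Cfsg.sigmaCore M : Set G) := by
  rintro m hm x ⟨⟨h1, h2⟩, h3⟩
  exact ⟨⟨sigmaHat_conj_mem hm h1, (sup_conj_mem_iff T hM D hm).2 h2⟩,
    fun h => h3 ((sigmaCore_conj_mem_iff hm).1 h)⟩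

theorem X3_inv (T : Texts0 G) {M K U : Subgroup G} (hM : IsCoatom M)
    (D : Cfsg.IsSigmaDecomposition M K U) :
    ∀ m ∈ M, ∀ x ∈ Cfsg.sigmaA0 M K \ Cfsg.sigmaA M U,
      m * x * m⁻¹ ∈ Cfsg.sigmaA0 M K \ Cfsg.sigmaA M U := by
  rintro m hm x ⟨⟨h1, h2⟩, h3⟩
  refine ⟨⟨sigmaHat_conj_mem hm h1, ?_⟩, fun h => h3 ⟨h1, (sup_conj_mem_iff T hM D hm).1 h.2⟩⟩
  rintro ⟨k, hk, hk1, m', hm', e⟩
  apply h2
  refine ⟨k, hk, hk1, m⁻¹ * m', M.mul_mem (M.inv_mem hm) hm', ?_⟩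
  have : x = m⁻¹ * (m * x * m⁻¹) * m := by group
  rw [this, e]
  group

end Cfsg.Agent.Lib.Helper75.BGTop
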