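import Mathlib

set_option autoImplicit false

namespace Cfsg.Agent.Lib.Helper75

open Finset Matrix

/-- number-theoretic core of the symmetric design argument -/
theorem design_arith (n k N lam a b : ℤ) (r : ℕ) (hr : Odd r) (hn : 2 ≤ n) (hk1 : 1 ≤ k) (hkn : k ≤ n)
    (hcop : IsCoprime k n) (hlam : 0 ≤ lam) (h1 : k = N + lam) (h2 : k ^ 2 = N + lam * n)
    (h3 : a ^ 2 = N ^ r) (h4 : k ^ r = a + b * n) : k = 1 ∨ k = n - 1 := by
  obtain ⟨t, rfl⟩ := hr
  have hkn' : k < n := by
    rcases lt_or_eq_of_le hkn with h | h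
    · exact h
    · exfalso
      subst h
      have : IsUnit k := by
        have := hcop
        rwa [isCoprime_self] at this
      rcases Int.isUnit_iff.1 this with h | h <;> omega
  -- N is a square, with a compatible root
  obtain ⟨s, hs1, hs2⟩ : ∃ s : ℤ, N = s ^ 2 ∧ a = s ^ (2 * t + 1) := by
    by_cases hN : N = 0
    · refine ⟨0, by simp [hN], ?_⟩
      rw [hN] at h3
      have : a ^ 2 = 0 := by rw [h3]; simp
      have : a = 0 := by simpa using this
      rw [this]; simp
    · have h5 : a ^ 2 = (N ^ t) ^ 2 * N := by rw [h3]; ring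
      have h6 : (N ^ t) ^ 2 ∣ a ^ 2 := ⟨N, h5⟩
      have h7 : N ^ t ∣ a := (Int.pow_dvd_pow_iff (by norm_num)).1 h6
      obtain ⟨s, hs⟩ := h7
      have hNt : (N ^ t) ^ 2 ≠ 0 := pow_ne_zero _ (pow_ne_zero _ hN)
      have h8 : N = s ^ 2 := by
        apply mul_left_cancel₀ hNt
        rw [← h5, hs]; ring
      refine ⟨s, h8, ?_⟩
      rw [hs]
      conv_lhs => rw [h8]
      ring
  have hd1 : n ∣ k ^ 2 - s ^ 2 := ⟨lam, by rw [h2, hs1]; ring⟩
  have hd2 : n ∣ (k ^ 2) ^ t - (s ^ 2) ^ t := hd1.trans (sub_dvd_pow_sub_pow _ _ _)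
  have hd3 : n ∣ k ^ (2 * t + 1) - s ^ (2 * t + 1) := ⟨b, by rw [h4, hs2]; ring⟩
  have hd4 : n ∣ (k - s) * (k ^ 2) ^ t := by
    have : (k - s) * (k ^ 2) ^ t = (k ^ (2 * t + 1) - s ^ (2 * t + 1)) - s * ((k ^ 2) ^ t - (s ^ 2) ^ t) := by
      ring
    rw [this]
    exact dvd_sub hd3 (hd2.mul_left _)
  have hcop' : IsCoprime n ((k ^ 2) ^ t) := (hcop.symm.pow_right).pow_right
  have hd5 : n ∣ k - s := hcop'.dvd_of_dvd_mul_right hd4
  have hsk : s ^ 2 ≤ k := by rw [← hs1]; linarith
  have hs_le : s ≤ k := by nlinarith [sq_nonneg (s - 1), sq_nonneg s]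
  have hs_ge : -k ≤ s := by nlinarith [sq_nonneg (s + 1), sq_nonneg s]
  obtain ⟨c, hc⟩ := hd5
  have hc0 : 0 ≤ c := by
    by_contra h
    push Not at h
    have : n * c ≤ n * (-1) := by
      apply mul_le_mul_of_nonneg_left (by omega) (by omega)
    linarith
  have hc2 : c < 2 := by
    by_contra h
    push Not at h
    have : n * 2 ≤ n * c := by
      apply mul_le_mul_of_nonneg_left h (by omega)
    linarith
  have hc01 : c = 0 ∨ c = 1 := by omega
  rcases hc01 with rfl | rfl
  · left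
    have hks : k = s := by linarith
    rw [← hks] at hsk
    nlinarith
  · right
    have hs' : s = k - n := by linarith
    have h9 : lam * n = (2 * k - n) * n := by
      have : lam * n = k ^ 2 - s ^ 2 := by rw [h2, hs1]; ring
      rw [this, hs']; ring
    have h10 : lam = 2 * k - n := mul_right_cancel₀ (by omega) h9
    have h11 : (n - k) * (n - k - 1) = 0 := by
      have : N = n - k := by linarith
      rw [hs1, hs'] at this
      nlinarith
    rcases mul_eq_zero.1 h11 with h | h <;> omega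

variable {Ω : Type*} [Fintype Ω] [DecidableEq Ω]

omit [DecidableEq Ω] in
theorem sum_mulVec (A : Matrix Ω Ω ℤ) (k : ℤ) (hcol : ∀ y, ∑ x, A x y = k) (w : Ω → ℤ) :
    ∑ x, (A *ᵥ w) x = k * ∑ y, w y := by
  simp only [Matrix.mulVec, dotProduct]
  rw [Finset.sum_comm, Finset.mul_sum]
  refine Finset.sum_congr rfl fun y _ => ?_
  rw [← Finset.sum_mul, hcol]

theorem sq_mulVec (A : Matrix Ω Ω ℤ) (N lam : ℤ)
    (hAtA : ∀ y y', ∑ x, A x y * A x y' = if y = y' then N + lam else lam) (w : Ω → ℤ) :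
    ∑ x, (A *ᵥ w) x * (A *ᵥ w) x = N * ∑ y, w y * w y + lam * (∑ y, w y) ^ 2 := by
  simp only [Matrix.mulVec, dotProduct]
  have h1 : ∀ x, (∑ y, A x y * w y) * (∑ y, A x y * w y)
      = ∑ y, ∑ y', (w y * w y') * (A x y * A x y') := by
    intro x
    rw [Finset.sum_mul_sum]
    refine Finset.sum_congr rfl fun y _ => Finset.sum_congr rfl fun y' _ => ?_
    ring
  simp only [h1]
  rw [Finset.sum_comm]
  have h2 : ∀ y, ∑ x, ∑ y', (w y * w y') * (A x y * A x y')
      = N * (w y * w y) + lam * (w y * ∑ y', w y') := by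
    intro y
    rw [Finset.sum_comm]
    have : ∀ y', ∑ x, (w y * w y') * (A x y * A x y')
        = (if y = y' then N * (w y * w y') else 0) + lam * (w y * w y') := by
      intro y'
      rw [← Finset.mul_sum, hAtA]
      split_ifs <;> ring
    simp only [this]
    rw [Finset.sum_add_distrib, Finset.sum_ite_eq, ← Finset.mul_sum, ← Finset.mul_sum]
    simp
  simp only [h2]
  rw [Finset.sum_add_distrib, ← Finset.mul_sum, ← Finset.mul_sum, ← Finset.sum_mul]
  ring

theorem design_matrix (A : Matrix Ω Ω ℤ) (k N lam a b : ℤ) (r : ℕ)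
    (hcol : ∀ y, ∑ x, A x y = k) (hrow : ∀ x, ∑ y, A x y = k)
    (hAtA : ∀ y y', ∑ x, A x y * A x y' = if y = y' then N + lam else lam)
    (hAr : ∀ x y, (A ^ r) x y = if x = y then a + b else b)
    (x0 y0 : Ω) (hxy : x0 ≠ y0) :
    k ^ 2 = N + lam * (Fintype.card Ω : ℤ) ∧ a ^ 2 = N ^ r ∧ k ^ r = a + b * (Fintype.card Ω : ℤ) := by
  have hn0 : (Fintype.card Ω : ℤ) ≠ 0 := by
    have : 0 < Fintype.card Ω := Fintype.card_pos_iff.2 ⟨x0⟩
    exact_mod_cast this.ne'
  have hone : A *ᵥ (fun _ => (1 : ℤ)) = fun _ => k := by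
    ext x
    simp [Matrix.mulVec, dotProduct, hrow]
  have hArv : ∀ w : Ω → ℤ, ∀ x, ((A ^ r) *ᵥ w) x = a * w x + b * ∑ y, w y := by
    intro w x
    simp only [Matrix.mulVec, dotProduct, hAr]
    have : ∀ y, (if x = y then a + b else b) * w y = (if x = y then a * w y else 0) + b * w y := by
      intro y; split_ifs <;> ring
    simp only [this]
    rw [Finset.sum_add_distrib, Finset.sum_ite_eq, ← Finset.mul_sum]
    simp
  refine ⟨?_, ?_, ?_⟩
  · have := sq_mulVec A N lam hAtA (fun _ => 1)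
    rw [hone] at this
    simp only [Finset.sum_const, Finset.card_univ, nsmul_eq_mul, mul_one] at this
    apply mul_left_cancel₀ hn0
    rw [← sub_eq_zero] at this ⊢
    rw [← this]; ring
  · have P : ∀ j : ℕ, ∀ w : Ω → ℤ, ∑ y, w y = 0 →
        ∑ x, ((A ^ j) *ᵥ w) x * ((A ^ j) *ᵥ w) x = N ^ j * ∑ y, w y * w y := by
      intro j
      induction j with
      | zero => intro w _; simp
      | succ j ih =>
        intro w hw
        rw [pow_succ, ← Matrix.mulVec_mulVec]
        rw [ih (A *ᵥ w) (by rw [sum_mulVec A k hcol, hw, mul_zero]), sq_mulVec A N lam hAtA, hw]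
        ring
    let w : Ω → ℤ := fun x => (if x = x0 then 1 else 0) - (if x = y0 then 1 else 0)
    have hw : ∑ y, w y = 0 := by
      simp [w, Finset.sum_sub_distrib]
    have h := P r w hw
    have h' : ∀ x, ((A ^ r) *ᵥ w) x = a * w x := by
      intro x; rw [hArv, hw]; ring
    simp only [h'] at h
    have hpos : 0 < ∑ y, w y * w y := by
      have h1 : w x0 * w x0 ≤ ∑ y, w y * w y :=
        Finset.single_le_sum (f := fun y => w y * w y) (fun y _ => mul_self_nonneg _) (Finset.mem_univ x0)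
      have h2 : w x0 = 1 := by simp [w, hxy]
      rw [h2] at h1
      linarith
    have h3 : ∑ x, a * w x * (a * w x) = a ^ 2 * ∑ y, w y * w y := by
      rw [Finset.mul_sum]
      refine Finset.sum_congr rfl fun y _ => ?_
      ring
    rw [h3] at h
    exact mul_right_cancel₀ hpos.ne' h
  · have Q : ∀ j : ℕ, (A ^ j) *ᵥ (fun _ => (1 : ℤ)) = fun _ => k ^ j := by
      intro j
      induction j with
      | zero => simp
      | succ j ih =>
        rw [pow_succ', ← Matrix.mulVec_mulVec, ih]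
        have : (fun _ : Ω => k ^ j) = k ^ j • (fun _ : Ω => (1 : ℤ)) := by
          ext; simp
        rw [this, Matrix.mulVec_smul, hone]
        ext; simp [pow_succ]
    have h := congrFun (Q r) x0
    rw [hArv] at h
    simp only [Finset.sum_const, Finset.card_univ, nsmul_eq_mul, mul_one] at h
    rw [← h]

end Cfsg.Agent.Lib.Helper75
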