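import Mathlib

set_option autoImplicit false

/-! Elementary facts on four-groups and the elements normalizing them (for the K-S ch.12 ladder). -/

namespace Cfsg.Agent.Lib.Helper75.JC

open Subgroup

variable {G : Type*} [Group G]

theorem odd_fix {u k w : G} (h : k * u * k⁻¹ = w * u) (hkw : Commute k w) (hw2 : w * w = 1)
    (hodd : Odd (orderOf k)) : w = 1 := by
  have key : ∀ n : ℕ, k ^ n * u * (k ^ n)⁻¹ = w ^ n * u := by
    intro n
    induction n with
    | zero => simp
    | succ n ih =>
      calc k ^ (n + 1) * u * (k ^ (n + 1))⁻¹ = k * (k ^ n * u * (k ^ n)⁻¹) * k⁻¹ := by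
            rw [pow_succ']; group
        _ = k * (w ^ n * u) * k⁻¹ := by rw [ih]
        _ = (k * w ^ n) * k⁻¹ * (k * u * k⁻¹) := by group
        _ = w ^ n * (w * u) := by
            rw [h, (hkw.pow_right n).eq]; group
        _ = w ^ (n + 1) * u := by rw [pow_succ]; group
  have h1 := key (orderOf k)
  rw [pow_orderOf_eq_one] at h1
  have h2 : w ^ orderOf k = 1 := by simpa using h1
  obtain ⟨j, hj⟩ := hodd
  rw [hj, pow_succ, pow_mul, pow_two, hw2, one_pow, one_mul] at h2
  exact h2

/-- a four-group -/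
structure Four (W : Subgroup G) : Prop where
  card : Nat.card W = 4
  sq : ∀ w ∈ W, w * w = 1

namespace Four

variable {W : Subgroup G}

theorem inv_eq (hW : Four W) {a : G} (ha : a ∈ W) : a⁻¹ = a :=
  inv_eq_of_mul_eq_one_left (hW.sq a ha)

theorem comm (hW : Four W) {a b : G} (ha : a ∈ W) (hb : b ∈ W) : a * b = b * a := by
  have h := hW.inv_eq (W.mul_mem ha hb)
  rw [mul_inv_rev, hW.inv_eq ha, hW.inv_eq hb] at h
  exact h.symm

theorem cases (hW : Four W) {a b : G} (ha : a ∈ W) (hb : b ∈ W) (ha1 : a ≠ 1) (hb1 : b ≠ 1)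
    (hab : a ≠ b) {v : G} (hv : v ∈ W) : v = 1 ∨ v = a ∨ v = b ∨ v = a * b := by
  classical
  have hfin : Finite W := Nat.finite_of_card_ne_zero (by rw [hW.card]; norm_num)
  let s : Finset G := {1, a, b, a * b}
  have hs : (s : Set G) ⊆ (W : Set G) := by
    intro x hx
    simp only [s, Finset.coe_insert, Finset.coe_singleton, Set.mem_insert_iff,
      Set.mem_singleton_iff] at hx
    rcases hx with rfl | rfl | rfl | rfl
    exacts [W.one_mem, ha, hb, W.mul_mem ha hb]
  have hcard : s.card = 4 := by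
    have h1 : a * b ≠ 1 := fun h => hab (mul_right_cancel (h.trans (hW.sq b hb).symm))
    have h2 : a * b ≠ a := by simpa using hb1
    have h3 : a * b ≠ b := by simpa using ha1
    have e1 : b ∉ ({a * b} : Finset G) := by simpa using h3.symm
    have e2 : a ∉ ({b, a * b} : Finset G) := by
      simp only [Finset.mem_insert, Finset.mem_singleton, not_or]
      exact ⟨hab, h2.symm⟩
    have e3 : (1 : G) ∉ ({a, b, a * b} : Finset G) := by
      simp only [Finset.mem_insert, Finset.mem_singleton, not_or]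
      exact ⟨ha1.symm, hb1.symm, h1.symm⟩
    simp only [s]
    rw [Finset.card_insert_of_notMem e3, Finset.card_insert_of_notMem e2,
      Finset.card_insert_of_notMem e1, Finset.card_singleton]
  have heq : (s : Set G) = W := by
    apply Set.eq_of_subset_of_ncard_le hs
    rw [Set.ncard_coe_finset, hcard, ← _root_.Nat.card_coe_set_eq]
    exact hW.card.le
  have hv' : v ∈ (s : Set G) := by rw [heq]; exact hv
  simpa [s] using hv'

/-- an element fixing two distinct nontrivial elements centralizes `W` -/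
theorem fix_all (hW : Four W) {a b g : G} (ha : a ∈ W) (hb : b ∈ W) (ha1 : a ≠ 1) (hb1 : b ≠ 1)
    (hab : a ≠ b) (hga : g * a * g⁻¹ = a) (hgb : g * b * g⁻¹ = b) :
    g ∈ centralizer (W : Set G) := by
  rw [mem_centralizer_iff]
  intro v hv
  have key : g * v * g⁻¹ = v := by
    rcases hW.cases ha hb ha1 hb1 hab hv with rfl | rfl | rfl | rfl
    · simp
    · exact hga
    · exact hgb
    · calc g * (a * b) * g⁻¹ = (g * a * g⁻¹) * (g * b * g⁻¹) := by group
        _ = a * b := by rw [hga, hgb]
  calc v * g = (g * v * g⁻¹) * g := by rw [key]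
    _ = g * v := by group

theorem conj_eq_of_mem_centralizer {g v : G} (hg : g ∈ centralizer (W : Set G)) (hv : v ∈ W) :
    g * v * g⁻¹ = v := by
  rw [← (mem_centralizer_iff.mp hg) v hv]; group

theorem conj_mem {g v : G} (hg : g ∈ normalizer (W : Set G)) (hv : v ∈ W) : g * v * g⁻¹ ∈ W :=
  (mem_normalizer_iff.mp hg v).mp hv

/-- if `g` fixes `a` and moves `b` then it maps `b` to `a * b` -/
theorem conj_eq_mul (hW : Four W) {a b g : G} (hg : g ∈ normalizer (W : Set G)) (ha : a ∈ W)
    (hb : b ∈ W) (ha1 : a ≠ 1) (hga : g * a * g⁻¹ = a) (hgb : g * b * g⁻¹ ≠ b) :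
    g * b * g⁻¹ = a * b := by
  have hb1 : b ≠ 1 := by rintro rfl; simp at hgb
  have hab : a ≠ b := by rintro rfl; exact hgb hga
  rcases hW.cases ha hb ha1 hb1 hab (conj_mem hg hb) with h | h | h | h
  · exfalso; apply hb1
    have : b = g⁻¹ * (g * b * g⁻¹) * g := by group
    rw [this, h]; group
  · exfalso; apply hab
    have e1 : g * a * g⁻¹ = g * b * g⁻¹ := hga.trans h.symm
    exact mul_left_cancel (mul_right_cancel e1)
  · exact absurd h hgb
  · exact h

/-- an element of odd order fixing a nontrivial element centralizes `W` -/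
theorem odd_centralizes (hW : Four W) {a k : G} (hk : k ∈ normalizer (W : Set G))
    (hodd : Odd (orderOf k)) (ha : a ∈ W) (ha1 : a ≠ 1) (hka : k * a * k⁻¹ = a) :
    k ∈ centralizer (W : Set G) := by
  by_contra hcon
  have : ∃ b ∈ W, k * b * k⁻¹ ≠ b := by
    by_contra h
    push Not at h
    apply hcon
    rw [mem_centralizer_iff]
    intro v hv
    calc v * k = (k * v * k⁻¹) * k := by rw [h v hv]
      _ = k * v := by group
  obtain ⟨b, hb, hkb⟩ := this
  have h1 := hW.conj_eq_mul hk ha hb ha1 hka hkb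
  have hc : Commute k a := by
    show k * a = a * k
    calc k * a = (k * a * k⁻¹) * k := by group
      _ = a * k := by rw [hka]
  exact ha1 (odd_fix h1 hc (hW.sq a ha) hodd)

/-- two elements fixing `a` and not centralizing `W` have their product centralizing `W` -/
theorem mul_mem_centralizer (hW : Four W) {a s t : G} (hs : s ∈ normalizer (W : Set G))
    (ht : t ∈ normalizer (W : Set G)) (ha : a ∈ W) (ha1 : a ≠ 1) (hsa : s * a * s⁻¹ = a)
    (hta : t * a * t⁻¹ = a) (hsW : s ∉ centralizer (W : Set G))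
    (htW : t ∉ centralizer (W : Set G)) : s * t ∈ centralizer (W : Set G) := by
  have : ∃ b ∈ W, s * b * s⁻¹ ≠ b := by
    by_contra h
    push Not at h
    apply hsW
    rw [mem_centralizer_iff]
    intro v hv
    calc v * s = (s * v * s⁻¹) * s := by rw [h v hv]
      _ = s * v := by group
  obtain ⟨b, hb, hsb⟩ := this
  have hb1 : b ≠ 1 := by rintro rfl; simp at hsb
  have hab : a ≠ b := by rintro rfl; exact hsb hsa
  have h1 := hW.conj_eq_mul hs ha hb ha1 hsa hsb
  have htb : t * b * t⁻¹ ≠ b := fun h => htW (hW.fix_all ha hb ha1 hb1 hab hta h)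
  have h2 := hW.conj_eq_mul ht ha hb ha1 hta htb
  apply hW.fix_all ha hb ha1 hb1 hab
  · calc s * t * a * (s * t)⁻¹ = s * (t * a * t⁻¹) * s⁻¹ := by group
      _ = a := by rw [hta, hsa]
  · calc s * t * b * (s * t)⁻¹ = s * (t * b * t⁻¹) * s⁻¹ := by group
      _ = (s * a * s⁻¹) * (s * b * s⁻¹) := by rw [h2]; group
      _ = a * (a * b) := by rw [hsa, h1]
      _ = b := by rw [← mul_assoc, hW.sq a ha, one_mul]

end Four

/-- intermediate subgroups for prime relative index -/
theorem eq_or_eq_of_relIndex_three {R D K : Subgroup G} (h3 : R.relIndex K = 3) (hRD : R ≤ D)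
    (hDK : D ≤ K) : D ≤ R ∨ K ≤ D := by
  have h := Subgroup.relIndex_mul_relIndex R D K hRD hDK
  rw [h3] at h
  have hp : Nat.Prime 3 := by norm_num
  have h1 : R.relIndex D ∣ 3 := ⟨_, h.symm⟩
  rcases (Nat.dvd_prime hp).mp h1 with h2 | h2
  · left; exact Subgroup.relIndex_eq_one.mp h2
  · right
    rw [h2] at h
    have : D.relIndex K = 1 := by omega
    exact Subgroup.relIndex_eq_one.mp this

end Cfsg.Agent.Lib.Helper75.JC
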